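import Cfsg.Agent.H73.HT.Elts

/-!
# S4933, part (O): the elements for the untwisted exceptional groups, final form (helper73)

`hasElt_g2`, `hasElt_f4`, `hasElt_e6`, `hasElt_e7`, `hasElt_e8`.
-/

set_option autoImplicit false
set_option linter.unusedSectionVars false

namespace Cfsg.Agent.H73.HT

open Cfsg.Lie Cfsg.Agent.H234.HT Cfsg.Agent.H892.HT

variable (F : Type) [Field F] [Fintype F] {p : ℕ} [Fact p.Prime] (hp2 : p ≠ 2) (hpF : ¬ p ∣ Fintype.card F)

include hp2 hpF

theorem hasElt_untw {D : ChevalleyDatum} (hD : D ∈ [chevG2, chevF4, chevE6, chevE7, chevE8])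
    (hab : Ab p ↥(D.group F)) (hpG : p ∣ Nat.card ↥(D.group F)) : HasElt3 p (D.group F) (Fintype.card F) := by
  have hpp : p.Prime := Fact.out
  by_cases h3 : p = 3
  · subst h3
    exact absurd hab (H371.HT.not_ab_untw hD hpF)
  · refine hasElt3_untw F ?_ hpF hD hpG hab
    by_contra hlt
    have h4 : p ≠ 4 := by rintro rfl; exact absurd hpp (by decide)
    have := hpp.two_le
    omega

theorem hasElt_g2 (hab : Ab p ↥(chevG2.group F)) (hpG : p ∣ Nat.card ↥(chevG2.group F)) :
    HasElt3 p (chevG2.group F) (Fintype.card F) := hasElt_untw F hp2 hpF (by simp) hab hpG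

theorem hasElt_f4 (hab : Ab p ↥(chevF4.group F)) (hpG : p ∣ Nat.card ↥(chevF4.group F)) :
    HasElt3 p (chevF4.group F) (Fintype.card F) := hasElt_untw F hp2 hpF (by simp) hab hpG

theorem hasElt_e6 (hab : Ab p ↥(chevE6.group F)) (hpG : p ∣ Nat.card ↥(chevE6.group F)) :
    HasElt3 p (chevE6.group F) (Fintype.card F) := hasElt_untw F hp2 hpF (by simp) hab hpG

theorem hasElt_e7 (hab : Ab p ↥(chevE7.group F)) (hpG : p ∣ Nat.card ↥(chevE7.group F)) :
    HasElt3 p (chevE7.group F) (Fintype.card F) := hasElt_untw F hp2 hpF (by simp) hab hpG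

theorem hasElt_e8 (hab : Ab p ↥(chevE8.group F)) (hpG : p ∣ Nat.card ↥(chevE8.group F)) :
    HasElt3 p (chevE8.group F) (Fintype.card F) := hasElt_untw F hp2 hpF (by simp) hab hpG

end Cfsg.Agent.H73.HT
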